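import Cfsg.Agent.Gag2.Main
import Cfsg.Agent.Gag2.PMain
import Cfsg.Agent.Gag.EndMain

/-!
# Gagola's theorem for `p = 2`
-/

set_option autoImplicit false
set_option linter.unusedSectionVars false

namespace Cfsg.Gag2

open Subgroup MulAction
open scoped Pointwise MatrixGroups commutatorElement

universe u v

theorem exists_perfect_normal {H : Type u} [Group H] [Finite H] (hns : ¬ Group.IsSolvable H) :
    ∃ E : Subgroup H, E.Normal ∧ E ≠ ⊥ ∧ ⁅E, E⁆ = E := by
  obtain ⟨_, ⟨n, rfl⟩, hn⟩ := Set.exists_min_image _ (fun X : Subgroup H => Nat.card X)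
    (Set.toFinite (Set.range (derivedSeries H))) ⟨_, 0, rfl⟩
  have := derivedSeries_normal H n
  exact ⟨_, this, fun e => hns ⟨n, e⟩,
    eq_of_le_of_card_ge (commutator_le_left _ _) (hn _ ⟨n + 1, rfl⟩)⟩

variable {H : Type u} [Group H] [Finite H] {V : Type v} [AddCommGroup V] [Finite V]
  [DistribMulAction H V]

theorem exists_sl2 (h : Gag.Top 2 H V) (hV : ∀ v : V, 2 • v = 0) (hns : ¬ Group.IsSolvable H) :
    ∃ (S : Subgroup H) (F : Type) (_ : Field F) (_ : Fintype F), S.Normal ∧ 3 < Fintype.card F ∧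
      Nonempty (S ≃* SL(2, F)) := by
  haveI : Fact (Nat.Prime 2) := ⟨Nat.prime_two⟩
  haveI : Fact (Nat.Prime 3) := ⟨Nat.prime_three⟩
  have hs := h.setup hV
  have two : ∀ v : V, v + v = 0 := fun v => by rw [← two_smul ℕ, hV]
  have H₀ : Hyp H V := Hyp.of_core two h.faith h.pgrp hs.nontriv
    (hs.eq_bot_of_normal (isPGroup_pCore 2 H))
  have hodd : ¬ 2 ∣ Nat.card V - 1 := by
    obtain ⟨k, hk⟩ := hs.card_V
    haveI := h.nontriv
    have h1 := Finite.one_lt_card (α := V)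
    rcases k with _ | k
    · omega
    · rw [pow_succ] at hk
      omega
  obtain ⟨E, hE, h0, hp⟩ := exists_perfect_normal hns
  have hp' : commutator E = ⊤ := by
    apply map_injective E.subtype_injective
    rw [map_subtype_commutator, hp, ← MonoidHom.range_eq_map, range_subtype]
  by_cases h3 : 3 ∣ Nat.card E
  · obtain ⟨y, oy⟩ := exists_prime_orderOf_dvd_card' 3 h3
    by_cases h4 : ∃ y' : H, orderOf y' = 3 ∧ y' ∉ zpowers (y : H)
    · obtain ⟨y', o₂, ne⟩ := h4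
      exact H₀.exists_sl2_of_three (fun v hv hd => hodd (by
        rwa [← hs.index_stab hv, Nat.add_sub_cancel])) (by rwa [orderOf_coe]) o₂ ne
    push Not at h4
    have h5 : ∀ g : H, ∃ i : ℤ, (y : H) ^ i = g⁻¹ * y * g⁻¹⁻¹ := fun g =>
      h4 _ (((MulAut.conj g⁻¹).orderOf_eq (y : H)).trans (by rwa [orderOf_coe]))
    have h6 : ⁅E, E⁆ ≤ centralizer {(y : H)} := by
      rw [commutator_le]
      intro a _ b _
      obtain ⟨i, hi⟩ := h5 a
      obtain ⟨j, hj⟩ := h5 b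
      have e2 : a⁻¹ * (b⁻¹ * y * b⁻¹⁻¹) * a⁻¹⁻¹ = b⁻¹ * (a⁻¹ * y * a⁻¹⁻¹) * b⁻¹⁻¹ := by
        rw [← hj, ← hi, ← conj_zpow, ← conj_zpow, ← hj, ← hi, ← zpow_mul, ← zpow_mul, mul_comm]
      rw [mem_centralizer_singleton_iff, commutatorElement_def]
      calc _ = a * b * (a⁻¹ * (b⁻¹ * y * b⁻¹⁻¹) * a⁻¹⁻¹) * a⁻¹ * b⁻¹ := by group
        _ = _ := by rw [e2]; group
    obtain ⟨P, hP⟩ := (IsPGroup.of_card (p := 3) (n := 1) (G := zpowers y)
      (by rw [Nat.card_zpowers, oy, pow_one])).exists_le_sylow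
    haveI := GagP.isCyclic_sylow (fun r R hr h2 hR => H₀.isCyclic_of_isPGroup hr h2 hR)
      Nat.prime_three (by decide) P
    have h7 : y = 1 := mem_bot.1 (commutator_inf_sylow_inf_center P ▸
      ⟨⟨hp' ▸ mem_top y, hP (mem_zpowers y)⟩, mem_center_iff.2 fun g =>
        Subtype.ext (mem_centralizer_singleton_iff.1 (h6 (hp.symm ▸ g.2)))⟩)
    rw [h7, orderOf_one] at oy
    exact absurd oy (by decide)
  · haveI := h.nontriv
    haveI : FaithfulSMul E V := ⟨fun {a b} e => Subtype.ext (H₀.op_inj (by ext v; exact e v))⟩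
    haveI := (nontrivial_iff_ne_bot E).2 h0
    exact (false_of_not_three_dvd (L := E) two (fun v hv => ⟨(H₀.subgroup E).stab v hv,
      fun hd => hodd (hd.trans (hs.relIndex_dvd E hv))⟩) hp' h3).elim

/-- **Gagola's theorem for `p = 2`.** -/
theorem concl (h : Gag.Top 2 H V) (hV : ∀ v : V, 2 • v = 0) (hns : ¬ Group.IsSolvable H) :
    Gag.Concl 2 H := by
  haveI : Fact (Nat.Prime 2) := ⟨Nat.prime_two⟩
  obtain ⟨S, F, _, _, hS, hF, ⟨e⟩⟩ := exists_sl2 h hV hns
  exact Gag.concl_of_sl h hV S e (by rwa [Nat.card_eq_fintype_card])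

end Cfsg.Gag2
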